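import Cfsg.Agent.Lib.KnownSimple.Leech.Co2.Top
import Cfsg.Agent.Lib.Conway.Co2S.Data

/-!
# The second Conway group: the orbits of a point stabiliser
-/

set_option autoImplicit false

namespace Cfsg.Agent.Lib.Conway.C2S

open Cfsg Cfsg.Spor Cfsg.Agent.Lib.Compute Cfsg.Agent.Lib.KnownSimple.PE Cfsg.Agent.Lib.KnownSimple.Leech
open Cfsg.Agent.Lib.KnownSimple.AutRigid
open Cfsg.Agent.Lib.KnownSimple.Leech.Co2 (N E H G pq D0 D1 D2 S0 S1 S2 KK1 memKK1_0 memKK1_1 memKK1_2 code_D0 code_D1 code_D2 coe_code_mul)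
open Cfsg.Agent.Lib.KnownSimple.Leech.Co2Data

/-- A code of a generator. -/
noncomputable def c0 : ℕ → ℕ := iterN (pq t1B) 1
/-- A code of a generator. -/
noncomputable def c1 : ℕ → ℕ := iterN (pq t2B) 2
/-- A code of a generator. -/
noncomputable def c2 : ℕ → ℕ := fun i => iterN (pq t0B) 22 (iterN (pq t2B) 9 (iterN (pq t2B) 9 (iterN (pq t0B) 22 (iterN (pq t2B) 1 (iterN (pq t0B) 1 (iterN (pq t2B) 1 (iterN (pq t2B) 1 (iterN (pq t1B) 1 (iterN (pq t1B) 1 (iterN (pq t0B) 1 (iterN (pq t2B) 1 (iterN (pq t0B) 1 (iterN (pq t1B) 1 (iterN (pq t2B) 1 (iterN (pq t0B) 1 i)))))))))))))))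

theorem code0 : E.IsCode ((S0 : G) : Equiv.Perm (Fin N)) c0 := coe_pow_isCode code_D1 1
theorem code1 : E.IsCode ((S1 : G) : Equiv.Perm (Fin N)) c1 := coe_pow_isCode code_D2 2
theorem code2 : E.IsCode ((S2 : G) : Equiv.Perm (Fin N)) c2 := by
  have h := coe_code_mul (coe_pow_isCode code_D0 22) (coe_code_mul (coe_pow_isCode code_D2 9) (coe_code_mul (coe_pow_isCode code_D2 9) (coe_code_mul (coe_pow_isCode code_D0 22) (coe_code_mul (coe_pow_isCode code_D2 1) (coe_code_mul (coe_pow_isCode code_D0 1) (coe_code_mul (coe_pow_isCode code_D2 1) (coe_code_mul (coe_pow_isCode code_D2 1) (coe_code_mul (coe_pow_isCode code_D1 1) (coe_code_mul (coe_pow_isCode code_D1 1) (coe_code_mul (coe_pow_isCode code_D0 1) (coe_code_mul (coe_pow_isCode code_D2 1) (coe_code_mul (coe_pow_isCode code_D0 1) (coe_code_mul (coe_pow_isCode code_D1 1) (coe_code_mul (coe_pow_isCode code_D2 1) (coe_pow_isCode code_D0 1)))))))))))))))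
  exact h

/-- The generators. -/
noncomputable def gF : ℕ → G := lgetD 1 [S0, S1, S2]

/-- The forest of the orbits. -/
noncomputable def LF (b D : ℕ) : Lev :=
  { b := b, D := D, arr := arrF, w := 22, m := 4194303, mp := 65535, bn := 16, mg := 3, bd := 18,
    fs := lgetD (fun a => a) [c0, c1, c2], gs := fun k => cdOf E (gF k : Equiv.Perm (Fin N))⁻¹ }

theorem gensF (b D : ℕ) : GensIn E KK1 (LF b D) := by
  intro k
  match k with
  | 0 => exact ⟨_, memKK1_0, code0, isCode_cdOf _⟩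
  | 1 => exact ⟨_, memKK1_1, code1, isCode_cdOf _⟩
  | 2 => exact ⟨_, memKK1_2, code2, isCode_cdOf _⟩
  | (k + 3) =>
    refine ⟨((1 : G) : Equiv.Perm (Fin N)), KK1.one_mem, ?_, isCode_cdOf _⟩
    show E.IsCode ((1 : G) : Equiv.Perm (Fin N)) (fun a => a)
    exact isCode_one E

end Cfsg.Agent.Lib.Conway.C2S
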