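import Cfsg.Agent.Lib.Conway.Co2S.Tree0
import Cfsg.Agent.Lib.Conway.Co2S.Tree1
import Cfsg.Agent.Lib.Conway.Co2S.Tree2
import Cfsg.Agent.Lib.Conway.Co2S.Tree3
import Cfsg.Agent.Lib.Conway.Co2S.Tree4
import Cfsg.Agent.Lib.Conway.McLSimple

/-!
# The second Conway group is simple
-/

set_option autoImplicit false

namespace Cfsg.Agent.Lib.Conway.C2S

open Cfsg Cfsg.Spor Cfsg.Agent.Lib.Compute Cfsg.Agent.Lib.Golay MulAction
open Cfsg.Agent.Lib.KnownSimple Cfsg.Agent.Lib.KnownSimple.PE Cfsg.Agent.Lib.KnownSimple.Leech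
open Cfsg.Agent.Lib.Conway Cfsg.Agent.Lib.Conway.TabSimple
open Cfsg.Agent.Lib.KnownSimple.Leech.Co2 (N E H G R top hall0 KK1 KKH1 fixV card_H hV_eq)

/-- The base point. -/
def x0 : Fin N := ⟨47103, by norm_num⟩

theorem trans_vec (i j : Fin N) : ∃ g : ↥Spor.Co2, g.1 (R.vec i) = R.vec j := by
  obtain ⟨g, _, e⟩ := TabUse.trans_of_level R (le_refl _) top.2
    ((allBelow_iff _ _).1 hall0 i i.isLt) ((allBelow_iff _ _).1 hall0 j j.isLt)
  exact ⟨g, e⟩

theorem vec_x0 : R.vec x0 = -leechV - leechU := by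
  have e : leechV = -(leechU + R.vec x0) := by
    apply LL_ext
    intro j hj
    rw [rowV_pt j hj]
    show dotS rowV (dlt j) = -((leechU : Vec) (pt j) + ((R.vec x0 : LL) : Vec) (pt j))
    rw [rowU_pt j hj, R.vec_pt _ hj]
    exact hV_eq j hj
  rw [e]
  abel

/-- The McLaughlin group in the group. -/
def incl : ↥Spor.McL →* ↥Spor.Co2 := Subgroup.inclusion (fun _ hg => ⟨hg.1.1, hg.2⟩)

/-- The McLaughlin group in the stabiliser. -/
noncomputable def th : ↥Spor.McL →* ↥(stabilizer ↥R.rep.range x0) :=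
  MonoidHom.codRestrict (R.rep.rangeRestrict.comp incl) (stabilizer ↥R.rep.range x0) (fun g => by
    rw [mem_stabilizer_iff]
    refine rep_apply_eq R ?_
    rw [vec_x0]
    show g.1 (-leechV - leechU) = -leechV - leechU
    rw [map_sub_Co0 g.2.1.1, map_neg_Co0 g.2.1.1, show g.1 leechV = leechV from g.2.1.2, show g.1 leechU = leechU from g.2.2])

theorem th_surj : Function.Surjective th := by
  rintro ⟨⟨_, g, rfl⟩, hfix⟩
  rw [mem_stabilizer_iff] at hfix
  have h1 : R.rep g x0 = x0 := hfix
  refine ⟨⟨g.1, ⟨g.2.1, fixV g h1⟩, g.2.2⟩, ?_⟩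
  apply Subtype.ext
  apply Subtype.ext
  rfl

theorem card_range : Nat.card ↥R.rep.range = 42305421312000 := card_H

instance nt : Nontrivial ↥(stabilizer ↥R.rep.range x0) :=
  nontrivial_stab R trans_vec x0 (by rw [card_range]; norm_num)

theorem simple_stab : IsSimpleGroup ↥(stabilizer ↥R.rep.range x0) := by
  have := ML.simple_McL
  exact IsSimpleGroup.isSimpleGroup_of_surjective th th_surj

/-- The classes. -/
noncomputable def clF (j : ℕ) : Fin 6 :=
  bcond (tb mask0 j) 1 (bcond (tb mask1 j) 2 (bcond (tb mask2 j) 3 (bcond (tb mask3 j) 4 (bcond (tb mask4 j) 5 0))))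

/-- The classes. -/
noncomputable def cls (i : Fin N) : Fin 6 := clF i

theorem cnt0 : countBelow (fun j => decide (clF j = 0)) N = 1 := by decide +kernel
theorem cnt1 : countBelow (fun j => decide (clF j = 1)) N = 275 := by decide +kernel
theorem cnt2 : countBelow (fun j => decide (clF j = 2)) N = 2025 := by decide +kernel
theorem cnt3 : countBelow (fun j => decide (clF j = 3)) N = 7128 := by decide +kernel
theorem cnt4 : countBelow (fun j => decide (clF j = 4)) N = 15400 := by decide +kernel
theorem cnt5 : countBelow (fun j => decide (clF j = 5)) N = 22275 := by decide +kernel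

theorem cls_hc (k : Fin 6) : {y | cls y = k}.ncard = ![1, 275, 2025, 7128, 15400, 22275] k := by
  have h : ∀ k : Fin 6, {y | cls y = k}.ncard = countBelow (fun j => decide (clF j = k)) N := by
    intro k
    rw [← ncard_fin R]
    congr 1
    ext y
    simp only [Set.mem_ofPred_eq, cls, decide_eq_true_eq]
  rw [h k]
  fin_cases k
  · exact cnt0
  · exact cnt1
  · exact cnt2
  · exact cnt3
  · exact cnt4
  · exact cnt5

theorem cls_x0 : cls x0 = 0 := by decide +kernel

theorem chk0 : allBelow (fun j => bcond (decide (clF j = 0)) (Nat.beq j 47103) true) N = true := by decide +kernel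

theorem cls_hx (y : Fin N) (h : cls y = cls x0) : y = x0 := by
  rw [cls_x0] at h
  have h1 := (allBelow_iff _ _).1 chk0 y y.isLt
  rw [show decide (clF y = 0) = true from decide_eq_true h, bcond_true] at h1
  exact Fin.ext (Nat.eq_of_beq_eq_true h1)

/-- The class determines the mask. -/
theorem mem_mask {j : ℕ} {D : ℕ} {k : Fin 6}
    (hk : k ≠ 0) (hD : (k = 1 ∧ D = mask0) ∨ (k = 2 ∧ D = mask1) ∨ (k = 3 ∧ D = mask2) ∨ (k = 4 ∧ D = mask3) ∨ (k = 5 ∧ D = mask4))
    (h : clF j = k) : tb D j = true := by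
  unfold clF at h
  cases h0 : tb mask0 j
  · rw [h0, bcond_false] at h
    cases h1 : tb mask1 j
    · rw [h1, bcond_false] at h
      cases h2 : tb mask2 j
      · rw [h2, bcond_false] at h
        cases h3 : tb mask3 j
        · rw [h3, bcond_false] at h
          cases h4 : tb mask4 j
          · rw [h4, bcond_false] at h
            exact absurd h.symm hk
          · rw [h4, bcond_true] at h
            subst h
            rcases hD with ⟨e, _⟩ | ⟨e, _⟩ | ⟨e, _⟩ | ⟨e, _⟩ | ⟨_, rfl⟩
            · exact absurd e (by decide)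
            · exact absurd e (by decide)
            · exact absurd e (by decide)
            · exact absurd e (by decide)
            · exact h4
        · rw [h3, bcond_true] at h
          subst h
          rcases hD with ⟨e, _⟩ | ⟨e, _⟩ | ⟨e, _⟩ | ⟨_, rfl⟩ | ⟨e, _⟩
          · exact absurd e (by decide)
          · exact absurd e (by decide)
          · exact absurd e (by decide)
          · exact h3
          · exact absurd e (by decide)
      · rw [h2, bcond_true] at h
        subst h
        rcases hD with ⟨e, _⟩ | ⟨e, _⟩ | ⟨_, rfl⟩ | ⟨e, _⟩ | ⟨e, _⟩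
        · exact absurd e (by decide)
        · exact absurd e (by decide)
        · exact h2
        · exact absurd e (by decide)
        · exact absurd e (by decide)
    · rw [h1, bcond_true] at h
      subst h
      rcases hD with ⟨e, _⟩ | ⟨_, rfl⟩ | ⟨e, _⟩ | ⟨e, _⟩ | ⟨e, _⟩
      · exact absurd e (by decide)
      · exact h1
      · exact absurd e (by decide)
      · exact absurd e (by decide)
      · exact absurd e (by decide)
  · rw [h0, bcond_true] at h
    subst h
    rcases hD with ⟨_, rfl⟩ | ⟨e, _⟩ | ⟨e, _⟩ | ⟨e, _⟩ | ⟨e, _⟩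
    · exact h0
    · exact absurd e (by decide)
    · exact absurd e (by decide)
    · exact absurd e (by decide)
    · exact absurd e (by decide)

theorem cls_trans (y y' : Fin N) (h : cls y = cls y') :
    ∃ g : ↥Spor.Co2, g.1 (R.vec x0) = R.vec x0 ∧ g.1 (R.vec y) = R.vec y' := by
  have key : ∃ g : ↥Spor.Co2, R.rep g ∈ KK1 ∧ g.1 (R.vec y) = R.vec y' := by
    have hy : clF y = cls y := rfl
    have hy' : clF y' = cls y := h.symm
    generalize cls y = k at hy hy'
    have step : ∀ {b D : ℕ}, (LF b D).treeOK N = true → tb D y = true → tb D y' = true →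
        ∃ g : ↥Spor.Co2, R.rep g ∈ KK1 ∧ g.1 (R.vec y) = R.vec y' := fun {b D} ht h1 h2 =>
      TabUse.trans_of_treeOK R KKH1 (gensF b D) ht (L := LF b D) h1 h2
    fin_cases k
    · have e1 : y = x0 := by
        apply cls_hx
        rw [cls_x0]
        exact hy
      have e2 : y' = x0 := by
        apply cls_hx
        rw [cls_x0]
        exact hy'
      rw [e1, e2]
      exact ⟨1, by rw [map_one]; exact KK1.one_mem, rfl⟩
    · exact step tree0 (mem_mask (k := 1) (by decide) (Or.inl ⟨rfl, rfl⟩) hy) (mem_mask (k := 1) (by decide) (Or.inl ⟨rfl, rfl⟩) hy')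
    · exact step tree1 (mem_mask (k := 2) (by decide) (Or.inr (Or.inl ⟨rfl, rfl⟩)) hy) (mem_mask (k := 2) (by decide) (Or.inr (Or.inl ⟨rfl, rfl⟩)) hy')
    · exact step tree2 (mem_mask (k := 3) (by decide) (Or.inr (Or.inr (Or.inl ⟨rfl, rfl⟩))) hy) (mem_mask (k := 3) (by decide) (Or.inr (Or.inr (Or.inl ⟨rfl, rfl⟩))) hy')
    · exact step tree3 (mem_mask (k := 4) (by decide) (Or.inr (Or.inr (Or.inr (Or.inl ⟨rfl, rfl⟩)))) hy) (mem_mask (k := 4) (by decide) (Or.inr (Or.inr (Or.inr (Or.inl ⟨rfl, rfl⟩)))) hy')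
    · exact step tree4 (mem_mask (k := 5) (by decide) (Or.inr (Or.inr (Or.inr (Or.inr ⟨rfl, rfl⟩)))) hy) (mem_mask (k := 5) (by decide) (Or.inr (Or.inr (Or.inr (Or.inr ⟨rfl, rfl⟩)))) hy')
  obtain ⟨g, hg, e⟩ := key
  refine ⟨g, ?_, e⟩
  have h1 := TabUse.vec_fix R (b := 47103) (by norm_num) (g := g) (top.2.fixK _ hg)
  exact h1

theorem prim : IsPreprimitive ↥R.rep.range (Fin N) :=
  prim_of_classes R trans_vec x0 cls cls_hx cls_trans ![1, 275, 2025, 7128, 15400, 22275] cls_hc (by
    rw [cls_x0]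
    decide +kernel)

/-- The group of permutations is simple. -/
theorem simple_range : IsSimpleGroup ↥R.rep.range := by
  have := prim
  have hnt : Nontrivial ↥R.rep.range := by
    rw [← Finite.one_lt_card_iff_nontrivial, card_range]
    norm_num
  refine SimpleKit.simple_of_no_regular (G := ↥R.rep.range) (X := Fin N) x0 simple_stab fun M hM _ hc => ?_
  exact SimpleKit.no_regular_paqb (X := Fin N) (p := 2) (q := 23) (a := 11) (b := 1) (by norm_num) (by norm_num) (by norm_num)
    (by norm_num) (by norm_num) (by rw [Nat.card_fin]; norm_num) M hM hc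

/-- The group is simple. -/
theorem simple_Co2 : IsSimpleGroup ↥Spor.Co2 := by
  have := simple_range
  exact (repIso Cfsg.Agent.Lib.KnownSimple.Leech.Co2.hinj).isSimpleGroup

theorem card_Co2 : Nat.card ↥Spor.Co2 = 42305421312000 :=
  (Nat.card_congr (repIso Cfsg.Agent.Lib.KnownSimple.Leech.Co2.hinj).toEquiv).trans card_range

/-- The main statement. -/
theorem S0402_aux (v : LL) (hv : sqNorm v.1 = 32) : IsCo2 ↥(MulAction.stabilizer ↥Co0 v) := by
  obtain ⟨k, hk, e⟩ := orb32 v hv
  have hiso : ↥(MulAction.stabilizer ↥Co0 v) ≃* ↥Spor.Co2 := by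
    refine conjIso (B := Spor.Co2) (fun _ hg => hg.1) hk fun a => ?_
    have h1 := conj_fix_iff (g := a.1) e
    rw [mem_stabilizer_iff]
    have mem : k * a.1 * k⁻¹ ∈ Co0 := mul_mem (mul_mem hk a.2) (inv_mem hk)
    constructor
    · intro h3
      exact ⟨mem, h1.2 h3⟩
    · rintro ⟨_, h4⟩
      exact h1.1 h4
  constructor
  · have := simple_Co2
    exact hiso.isSimpleGroup
  · exact (Nat.card_congr hiso.toEquiv).trans card_Co2

end Cfsg.Agent.Lib.Conway.C2S
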